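import Cfsg.Agent.Blk.Lift
import Cfsg.Agent.H49.Core

/-!
# Blocks of normalizers of chains
-/

set_option autoImplicit false
set_option linter.style.haveILetI false
set_option linter.unusedSectionVars false

namespace Cfsg.Agent.Blk

open Cfsg Cfsg.Agent.CharBase

universe u v

/-- A `p`-regular element normalizing a chain of `p`-subgroups and centralizing the elements of the
top that normalize the chain centralizes the top. -/
theorem centralizes_of_chain {G : Type u} [Group G] [Finite G] {p : ℕ} [Fact p.Prime] (m : ℕ) :
    ∀ (Q : Fin (m + 1) → Subgroup G), Monotone Q → (∀ i, IsPGroup p (Q i)) →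
    ∀ x : G, ¬ p ∣ orderOf x → (∀ i, x ∈ Subgroup.normalizer (Q i : Set G)) →
    (∀ u ∈ Q (Fin.last m), (∀ i, u ∈ Subgroup.normalizer (Q i : Set G)) → x * u = u * x) →
    x ∈ Subgroup.centralizer (Q (Fin.last m) : Set G) := by
  induction m with
  | zero =>
    intro Q _ _ x _ _ hc
    rw [Subgroup.mem_centralizer_iff]
    intro u hu
    refine (hc u hu fun i => ?_).symm
    have : i = Fin.last 0 := Fin.eq_of_val_eq (by have := i.2; simp only [Fin.val_last]; omega)
    rw [this]
    exact Subgroup.le_normalizer hu
  | succ m ih =>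
    intro Q hQ hQp x hx hxN hc
    -- the chain without the top
    have h1 : x ∈ Subgroup.centralizer (Q (Fin.castSucc (Fin.last m)) : Set G) := by
      refine ih (fun i => Q (Fin.castSucc i)) (fun i j hij => hQ (by simpa using hij))
        (fun i => hQp _) x hx (fun i => hxN _) ?_
      intro u hu huN
      have hle : Q (Fin.castSucc (Fin.last m)) ≤ Q (Fin.last (m + 1)) := hQ (Fin.le_last _)
      refine hc u (hle hu) fun i => ?_
      rcases Fin.eq_castSucc_or_eq_last i with ⟨j, rfl⟩ | rfl
      · exact huN j
      · exact Subgroup.le_normalizer (hle hu)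
    have hle : Q (Fin.castSucc (Fin.last m)) ≤ Q (Fin.last (m + 1)) := hQ (Fin.le_last _)
    -- Thompson's `A × B` lemma
    refine H49.thompson_AB (hQp (Fin.castSucc (Fin.last m))) ?_ h1 _ (hQp _)
      (hle.trans Subgroup.le_normalizer) (hxN _) ?_
    · exact ((Nat.Prime.coprime_iff_not_dvd Fact.out).2 hx).symm
    · rw [Subgroup.mem_centralizer_iff]
      rintro u ⟨hu, hu2⟩
      refine (hc u hu fun i => ?_).symm
      rcases Fin.eq_castSucc_or_eq_last i with ⟨j, rfl⟩ | rfl
      · -- `u` centralizes `Q j`
        have hj : Q (Fin.castSucc j) ≤ Q (Fin.castSucc (Fin.last m)) :=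
          hQ (by simpa using Fin.le_last j)
        exact centralizer_le_normalizer _ (centralizer_le_of_le hj hu2)
      · exact Subgroup.le_normalizer hu

end Cfsg.Agent.Blk
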